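import Cfsg.Agent.Lib.Helper21.O10.Defs
import Cfsg.Agent.Lib.Helper57.OE.Base

set_option autoImplicit false
set_option linter.unusedSectionVars false

/-! # helper21's dimension 10 farm, piece M1: coordinates with respect to a field of index 2 -/

namespace Cfsg.Agent.Lib.Helper2.O10

open Cfsg Cfsg.Geo Matrix Cfsg.Agent.Lib.Helper13.Asch Cfsg.Agent.Lib.Helper90.Sp
  Cfsg.Agent.Lib.Helper57.OE Cfsg.Agent.Lib.Helper21.O10
open scoped Kronecker MatrixGroups commutatorElement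

variable {ι : Type} [Fintype ι] [DecidableEq ι] {F : Type*} [Field F] {Q : (ι → F) → F}

/-- the map `k ↦ k w` -/
def orbMap (K : Subalgebra F (Matrix ι ι F)) (w : ι → F) : K →ₗ[F] (ι → F) where
  toFun k := k.1 *ᵥ w
  map_add' a b := by simp [Matrix.add_mulVec]
  map_smul' c a := by simp [Matrix.smul_mulVec]

/-- the `K`-line through `w` -/
def orb (K : Subalgebra F (Matrix ι ι F)) (w : ι → F) : Submodule F (ι → F) :=
  LinearMap.range (orbMap K w)

theorem mem_orb {K : Subalgebra F (Matrix ι ι F)} {w v : ι → F} :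
    v ∈ orb K w ↔ ∃ k ∈ K, v = k *ᵥ w := by
  constructor
  · rintro ⟨k, rfl⟩
    exact ⟨k.1, k.2, rfl⟩
  · rintro ⟨k, hk, rfl⟩
    exact ⟨⟨k, hk⟩, rfl⟩

theorem eq_zero_of_mulVec_eq_zero {r : ℕ} {K : Subalgebra F (Matrix ι ι F)}
    (hK : IsFieldSubalgebra r K) {k : Matrix ι ι F} (hk : k ∈ K) {w : ι → F} (hw : w ≠ 0)
    (h : k *ᵥ w = 0) : k = 0 := by
  by_contra hk0
  obtain ⟨y, hy, hky⟩ := hK.inv k hk hk0
  apply hw
  have : (y * k) *ᵥ w = w := by rw [hK.comm y hy k hk, hky, Matrix.one_mulVec]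
  rw [← this, ← Matrix.mulVec_mulVec, h, Matrix.mulVec_zero]

theorem orbMap_injective {r : ℕ} {K : Subalgebra F (Matrix ι ι F)}
    (hK : IsFieldSubalgebra r K) {w : ι → F} (hw : w ≠ 0) : Function.Injective (orbMap K w) := by
  rw [← LinearMap.ker_eq_bot, LinearMap.ker_eq_bot']
  intro k hk
  exact Subtype.ext (eq_zero_of_mulVec_eq_zero hK k.2 hw hk)

theorem finrank_orb {r : ℕ} {K : Subalgebra F (Matrix ι ι F)}
    (hK : IsFieldSubalgebra r K) {w : ι → F} (hw : w ≠ 0) : Module.finrank F (orb K w) = r := by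
  unfold orb
  rw [LinearMap.finrank_range_of_inj (orbMap_injective hK hw)]
  exact hK.finrank_eq

theorem exists_coords {r : ℕ} (K : Subalgebra F (Matrix ι ι F)) (hK : IsFieldSubalgebra r K)
    (h2r : 2 * r = Fintype.card ι) (w u : ι → F) (hw : w ≠ 0) (hu : ∀ k ∈ K, u ≠ k *ᵥ w) :
    ∀ v, ∃ a ∈ K, ∃ b ∈ K, v = a *ᵥ w + b *ᵥ u := by
  have hu0 : u ≠ 0 := by
    intro h
    exact hu 0 K.zero_mem (by rw [h, Matrix.zero_mulVec])
  have hdisj : orb K w ⊓ orb K u = ⊥ := by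
    rw [eq_bot_iff]
    rintro x ⟨hx1, hx2⟩
    obtain ⟨a, ha, rfl⟩ := mem_orb.1 hx1
    obtain ⟨b, hb, hab⟩ := mem_orb.1 hx2
    by_cases hb0 : b = 0
    · rw [hab, hb0, Matrix.zero_mulVec]; exact Submodule.zero_mem _
    · exfalso
      obtain ⟨y, hy, hby⟩ := hK.inv b hb hb0
      apply hu (y * a) (K.mul_mem hy ha)
      rw [← Matrix.mulVec_mulVec, hab, Matrix.mulVec_mulVec, hK.comm y hy b hb, hby,
        Matrix.one_mulVec]
  have htop : orb K w ⊔ orb K u = ⊤ := by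
    apply Submodule.eq_top_of_finrank_eq
    have h := Submodule.finrank_sup_add_finrank_inf_eq (orb K w) (orb K u)
    rw [hdisj, finrank_bot, finrank_orb hK hw, finrank_orb hK hu0] at h
    rw [Module.finrank_fintype_fun_eq_card]
    omega
  intro v
  have hv : v ∈ orb K w ⊔ orb K u := by rw [htop]; trivial
  obtain ⟨x, hx, y, hy, rfl⟩ := Submodule.mem_sup.1 hv
  obtain ⟨a, ha, rfl⟩ := mem_orb.1 hx
  obtain ⟨b, hb, rfl⟩ := mem_orb.1 hy
  exact ⟨a, ha, b, hb, rfl⟩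

end Cfsg.Agent.Lib.Helper2.O10
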