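import Cfsg.Agent.Lib.Helper2.O10.M1
import Cfsg.Agent.Lib.Helper51.OE.FBase

set_option autoImplicit false
set_option linter.unusedSectionVars false

/-! # helper21's dimension 10 farm, piece M5: characteristic 2, alternating elements lie in `K` -/

namespace Cfsg.Agent.Lib.Helper2.O10

open Cfsg Cfsg.Geo Matrix Cfsg.Agent.Lib.Helper13.Asch Cfsg.Agent.Lib.Helper90.Sp
  Cfsg.Agent.Lib.Helper57.OE Cfsg.Agent.Lib.Helper21.O10
open scoped Kronecker MatrixGroups commutatorElement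

variable {ι : Type} [Fintype ι] [DecidableEq ι] {F : Type*} [Field F] {Q : (ι → F) → F}

theorem mat_add_self (h2 : (2 : F) = 0) (M : Matrix ι ι F) : M + M = 0 := by
  rw [← two_smul F M, h2, zero_smul]

theorem vec_add_self (h2 : (2 : F) = 0) (v : ι → F) : v + v = 0 := by
  rw [← two_smul F v, h2, zero_smul]

theorem fld_add_self (h2 : (2 : F) = 0) (a : F) : a + a = 0 := by
  rw [← two_mul, h2, zero_mul]

theorem eq_zero_of_sq_eq_zero {r : ℕ} {K : Subalgebra F (Matrix ι ι F)}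
    (hK : IsFieldSubalgebra r K) {z : Matrix ι ι F} (hz : z ∈ K) (h : z * z = 0) : z = 0 := by
  by_contra hz0
  obtain ⟨y, -, hzy⟩ := hK.inv z hz hz0
  apply hz0
  calc z = z * (z * y) := by rw [hzy, mul_one]
    _ = (z * z) * y := by rw [mul_assoc]
    _ = 0 := by rw [h, zero_mul]

/-- squaring is onto in a finite field of characteristic 2 -/
theorem exists_sqrt [Fintype F] (h2 : (2 : F) = 0) {r : ℕ} {K : Subalgebra F (Matrix ι ι F)}
    (hK : IsFieldSubalgebra r K) {k : Matrix ι ι F} (hk : k ∈ K) : ∃ m ∈ K, m * m = k := by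
  have hinj : Function.Injective (fun x : K => x * x) := by
    intro x y hxy
    have hxy' : x.1 * x.1 = y.1 * y.1 := congrArg Subtype.val hxy
    have h0 : (x.1 - y.1) * (x.1 - y.1) = 0 := by
      have : (x.1 - y.1) * (x.1 - y.1)
          = (x.1 * x.1 + y.1 * y.1) - (x.1 * y.1 + y.1 * x.1) := by noncomm_ring
      rw [this, hK.comm y.1 y.2 x.1 x.2, hxy', mat_add_self h2, mat_add_self h2, sub_zero]
    exact Subtype.ext (sub_eq_zero.1 (eq_zero_of_sq_eq_zero hK (K.sub_mem x.2 y.2) h0))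
  obtain ⟨m, hm⟩ := (Finite.injective_iff_surjective.1 hinj) ⟨k, hk⟩
  exact ⟨m.1, m.2, congrArg Subtype.val hm⟩

theorem polar_self_eq_zero (h2 : (2 : F) = 0) (hQ : IsNondegenerateQuadraticForm Q) (v : ι → F) :
    QuadraticMap.polar Q v v = 0 := by
  rw [← two_mul_Q hQ, h2, zero_mul]

theorem polar_K_self [Fintype F] (h2 : (2 : F) = 0) (hQ : IsNondegenerateQuadraticForm Q)
    {r : ℕ} {K : Subalgebra F (Matrix ι ι F)} (hK : IsFieldSubalgebra r K)
    (hsa : IsSelfAdjointFor (QuadraticMap.polar Q) K) {k : Matrix ι ι F} (hk : k ∈ K)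
    (w : ι → F) : QuadraticMap.polar Q (k *ᵥ w) w = 0 := by
  obtain ⟨m, hm, rfl⟩ := exists_sqrt h2 hK hk
  rw [← Matrix.mulVec_mulVec, hsa m hm, polar_self_eq_zero h2 hQ]

theorem perp_orb [Fintype F] (h2 : (2 : F) = 0) (hQ : IsNondegenerateQuadraticForm Q)
    {r : ℕ} {K : Subalgebra F (Matrix ι ι F)} (hK : IsFieldSubalgebra r K)
    (h2r : 2 * r = Fintype.card ι) (hsa : IsSelfAdjointFor (QuadraticMap.polar Q) K)
    {w : ι → F} (hw : w ≠ 0) : Cfsg.Agent.Lib.Helper51.OE.perp hQ (orb K w) = orb K w := by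
  symm
  apply Submodule.eq_of_le_of_finrank_eq
  · intro x hx
    rw [Cfsg.Agent.Lib.Helper51.OE.mem_perp]
    intro y hy
    obtain ⟨k, hk, rfl⟩ := mem_orb.1 hx
    obtain ⟨l, hl, rfl⟩ := mem_orb.1 hy
    rw [← hsa k hk, Matrix.mulVec_mulVec]
    exact polar_K_self h2 hQ hK hsa (K.mul_mem hk hl) w
  · have h := Cfsg.Agent.Lib.Helper51.OE.finrank_perp hQ (orb K w)
    rw [finrank_orb hK hw] at h ⊢
    omega

theorem mem_of_alternating [Fintype F] (h2 : (2 : F) = 0) (hQ : IsNondegenerateQuadraticForm Q)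
    {r : ℕ} (K : Subalgebra F (Matrix ι ι F)) (hK : IsFieldSubalgebra r K)
    (h2r : 2 * r = Fintype.card ι) (hsa : IsSelfAdjointFor (QuadraticMap.polar Q) K)
    (g : Matrix ι ι F) (hgK : Cent K g) (hg : ∀ w, QuadraticMap.polar Q (g *ᵥ w) w = 0) :
    g ∈ K := by
  rcases isEmpty_or_nonempty ι with hι | hι
  · have : g = 0 := Subsingleton.elim _ _
    rw [this]; exact K.zero_mem
  have hcard : 0 < Fintype.card ι := Fintype.card_pos
  -- eigen-property
  have key : ∀ w : ι → F, w ≠ 0 → ∃ κ ∈ K, g *ᵥ w = κ *ᵥ w := by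
    intro w hw
    have : g *ᵥ w ∈ Cfsg.Agent.Lib.Helper51.OE.perp hQ (orb K w) := by
      rw [Cfsg.Agent.Lib.Helper51.OE.mem_perp]
      intro x hx
      obtain ⟨k, hk, rfl⟩ := mem_orb.1 hx
      obtain ⟨m, hm, rfl⟩ := exists_sqrt h2 hK hk
      rw [← Matrix.mulVec_mulVec, hsa m hm, Matrix.mulVec_mulVec, ← hgK m hm,
        ← Matrix.mulVec_mulVec, QuadraticMap.polar_comm]
      exact hg _
    rw [perp_orb h2 hQ hK h2r hsa hw] at this
    exact mem_orb.1 this
  obtain ⟨i⟩ := hι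
  have hw : (Pi.single i 1 : ι → F) ≠ 0 := by
    intro h
    have := congrFun h i
    simp at this
  set w : ι → F := Pi.single i 1 with hwdef
  obtain ⟨u, hu⟩ : ∃ u, u ∉ orb K w := by
    by_contra hcon
    push Not at hcon
    have htop : orb K w = ⊤ := eq_top_iff.2 fun x _ => hcon x
    have h := finrank_orb hK hw
    rw [htop, finrank_top, Module.finrank_fintype_fun_eq_card] at h
    omega
  have hu' : ∀ k ∈ K, u ≠ k *ᵥ w := fun k hk h => hu (mem_orb.2 ⟨k, hk, h⟩)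
  have hu0 : u ≠ 0 := by
    intro h
    exact hu' 0 K.zero_mem (by rw [h, Matrix.zero_mulVec])
  have hwu : w + u ≠ 0 := by
    intro h
    apply hu' 1 K.one_mem
    rw [Matrix.one_mulVec]
    have : u = u + (w + w) := by rw [vec_add_self h2, add_zero]
    rw [this, add_comm u, add_assoc, h, add_zero]
  obtain ⟨κw, hκw, hgw⟩ := key w hw
  obtain ⟨κu, hκu, hgu⟩ := key u hu0
  obtain ⟨κ, hκ, hgwu⟩ := key (w + u) hwu
  have hrel : (κ - κw) *ᵥ w = (κu - κ) *ᵥ u := by
    rw [Matrix.mulVec_add, Matrix.mulVec_add, hgw, hgu] at hgwu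
    rw [Matrix.sub_mulVec, Matrix.sub_mulVec, sub_eq_sub_iff_add_eq_add, add_comm (κu *ᵥ u),
      add_comm, hgwu, add_comm]
  have h1 : κu - κ = 0 := by
    by_contra hne
    obtain ⟨y, hy, hyy⟩ := hK.inv _ (K.sub_mem hκu hκ) hne
    apply hu' (y * (κ - κw)) (K.mul_mem hy (K.sub_mem hκ hκw))
    rw [← Matrix.mulVec_mulVec, hrel, Matrix.mulVec_mulVec,
      hK.comm y hy _ (K.sub_mem hκu hκ), hyy, Matrix.one_mulVec]
  have h3 : κ - κw = 0 := by
    rw [h1, Matrix.zero_mulVec] at hrel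
    exact eq_zero_of_mulVec_eq_zero hK (K.sub_mem hκ hκw) hw hrel
  have e1 : κu = κ := sub_eq_zero.1 h1
  have e2 : κw = κ := (sub_eq_zero.1 h3).symm
  rw [e1] at hgu
  rw [e2] at hgw
  have hall : ∀ v, g *ᵥ v = κ *ᵥ v := by
    intro v
    obtain ⟨a, ha, b, hb, rfl⟩ := exists_coords K hK h2r w u hw hu' v
    rw [Matrix.mulVec_add, Matrix.mulVec_add, Matrix.mulVec_mulVec, Matrix.mulVec_mulVec,
      Matrix.mulVec_mulVec, Matrix.mulVec_mulVec, hgK a ha, hgK b hb, hK.comm κ hκ a ha,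
      hK.comm κ hκ b hb, ← Matrix.mulVec_mulVec, ← Matrix.mulVec_mulVec, ← Matrix.mulVec_mulVec,
      ← Matrix.mulVec_mulVec, hgw, hgu]
  have : g = κ := by
    ext a b
    have := congrFun (hall (Pi.single b 1)) a
    simpa [Matrix.mulVec_single_one] using this
  rw [this]; exact hκ

end Cfsg.Agent.Lib.Helper2.O10
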