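import Cfsg.Agent.Lib.Helper2.O10.M5

set_option autoImplicit false
set_option linter.unusedSectionVars false

/-! # helper21's dimension 10 farm, piece M6: characteristic 2, isometries commuting with `K` -/

namespace Cfsg.Agent.Lib.Helper2.O10

open Cfsg Cfsg.Geo Matrix Cfsg.Agent.Lib.Helper13.Asch Cfsg.Agent.Lib.Helper90.Sp
  Cfsg.Agent.Lib.Helper57.OE Cfsg.Agent.Lib.Helper21.O10
open scoped Kronecker MatrixGroups commutatorElement

variable {ι : Type} [Fintype ι] [DecidableEq ι] {F : Type*} [Field F] {Q : (ι → F) → F}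

theorem gl_mul_inv_vec (y : GL ι F) (v : ι → F) :
    (y : Matrix ι ι F) *ᵥ (((y⁻¹ : GL ι F) : Matrix ι ι F) *ᵥ v) = v := by
  rw [Matrix.mulVec_mulVec, ← Units.val_mul, mul_inv_cancel, Units.val_one, Matrix.one_mulVec]

theorem gl_inv_mul_vec (y : GL ι F) (v : ι → F) :
    ((y⁻¹ : GL ι F) : Matrix ι ι F) *ᵥ ((y : Matrix ι ι F) *ᵥ v) = v := by
  rw [Matrix.mulVec_mulVec, ← Units.val_mul, inv_mul_cancel, Units.val_one, Matrix.one_mulVec]

theorem polar_isom {y : Matrix ι ι F} (hy : ∀ v, Q (y *ᵥ v) = Q v) (u v : ι → F) :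
    QuadraticMap.polar Q (y *ᵥ u) (y *ᵥ v) = QuadraticMap.polar Q u v := by
  unfold QuadraticMap.polar
  rw [← Matrix.mulVec_add, hy, hy, hy]

theorem polar_adj {y : GL ι F} (hy : ∀ v, Q ((y : Matrix ι ι F) *ᵥ v) = Q v) (u v : ι → F) :
    QuadraticMap.polar Q ((y : Matrix ι ι F) *ᵥ u) v
      = QuadraticMap.polar Q u (((y⁻¹ : GL ι F) : Matrix ι ι F) *ᵥ v) := by
  conv_lhs => rw [← gl_mul_inv_vec y v]
  exact polar_isom hy _ _

theorem cent_inv {K : Subalgebra F (Matrix ι ι F)} {y : GL ι F}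
    (hyK : Cent K (y : Matrix ι ι F)) : Cent K ((y⁻¹ : GL ι F) : Matrix ι ι F) := by
  intro k hk
  have h1 : ((y⁻¹ : GL ι F) : Matrix ι ι F) * (y : Matrix ι ι F) = 1 := by
    rw [← Units.val_mul, inv_mul_cancel, Units.val_one]
  have h2 : (y : Matrix ι ι F) * ((y⁻¹ : GL ι F) : Matrix ι ι F) = 1 := by
    rw [← Units.val_mul, mul_inv_cancel, Units.val_one]
  calc ((y⁻¹ : GL ι F) : Matrix ι ι F) * k
      = ((y⁻¹ : GL ι F) : Matrix ι ι F) * k * ((y : Matrix ι ι F)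
          * ((y⁻¹ : GL ι F) : Matrix ι ι F)) := by rw [h2, mul_one]
    _ = ((y⁻¹ : GL ι F) : Matrix ι ι F) * (k * (y : Matrix ι ι F))
          * ((y⁻¹ : GL ι F) : Matrix ι ι F) := by simp only [mul_assoc]
    _ = ((y⁻¹ : GL ι F) : Matrix ι ι F) * ((y : Matrix ι ι F) * k)
          * ((y⁻¹ : GL ι F) : Matrix ι ι F) := by rw [hyK k hk]
    _ = (((y⁻¹ : GL ι F) : Matrix ι ι F) * (y : Matrix ι ι F)) * k
          * ((y⁻¹ : GL ι F) : Matrix ι ι F) := by simp only [mul_assoc]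
    _ = k * ((y⁻¹ : GL ι F) : Matrix ι ι F) := by rw [h1, one_mul]

theorem cent_add {K : Subalgebra F (Matrix ι ι F)} {a b : Matrix ι ι F}
    (ha : Cent K a) (hb : Cent K b) : Cent K (a + b) := by
  intro k hk
  rw [add_mul, mul_add, ha k hk, hb k hk]

theorem cent_mul {K : Subalgebra F (Matrix ι ι F)} {a b : Matrix ι ι F}
    (ha : Cent K a) (hb : Cent K b) : Cent K (a * b) := by
  intro k hk
  rw [mul_assoc, hb k hk, ← mul_assoc, ha k hk, mul_assoc]

theorem cent_of_mem {r : ℕ} {K : Subalgebra F (Matrix ι ι F)} (hK : IsFieldSubalgebra r K)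
    {a : Matrix ι ι F} (ha : a ∈ K) : Cent K a := fun k hk => hK.comm a ha k hk

/-- (E2) the trace `y + y⁻¹` lies in `K` -/
theorem trace_mem [Fintype F] (h2 : (2 : F) = 0)
    (hQ : IsNondegenerateQuadraticForm Q) {r : ℕ} (K : Subalgebra F (Matrix ι ι F))
    (hK : IsFieldSubalgebra r K) (h2r : 2 * r = Fintype.card ι)
    (hsa : IsSelfAdjointFor (QuadraticMap.polar Q) K) (y : GL ι F)
    (hyK : Cent K (y : Matrix ι ι F)) (hy : ∀ v, Q ((y : Matrix ι ι F) *ᵥ v) = Q v) :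
    (y : Matrix ι ι F) + ((y⁻¹ : GL ι F) : Matrix ι ι F) ∈ K := by
  apply mem_of_alternating h2 hQ K hK h2r hsa _ (cent_add hyK (cent_inv hyK))
  intro w
  rw [Matrix.add_mulVec, hQ.polar_bilinear.add_left, polar_adj hy,
    QuadraticMap.polar_comm Q w, fld_add_self h2]

theorem sq_eq_one_of_trace_zero (h2 : (2 : F) = 0) (y : GL ι F)
    (h : (y : Matrix ι ι F) + ((y⁻¹ : GL ι F) : Matrix ι ι F) = 0) : y * y = 1 := by
  have h1 : (y : Matrix ι ι F) = ((y⁻¹ : GL ι F) : Matrix ι ι F) := by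
    have : (y : Matrix ι ι F) = (y : Matrix ι ι F) + ((((y⁻¹ : GL ι F) : Matrix ι ι F))
        + ((y⁻¹ : GL ι F) : Matrix ι ι F)) := by rw [mat_add_self h2, add_zero]
    rw [this, ← add_assoc, h, zero_add]
  have h3 : y = y⁻¹ := Units.ext h1
  calc y * y = y * y⁻¹ := by rw [← h3]
    _ = 1 := mul_inv_cancel y

/-- (E3) + (E4) -/
theorem isom_cases [Fintype F] (h2 : (2 : F) = 0)
    (hQ : IsNondegenerateQuadraticForm Q) {r : ℕ} (K : Subalgebra F (Matrix ι ι F))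
    (hK : IsFieldSubalgebra r K) (h2r : 2 * r = Fintype.card ι)
    (hsa : IsSelfAdjointFor (QuadraticMap.polar Q) K) (y : GL ι F)
    (hyK : Cent K (y : Matrix ι ι F)) (hy : ∀ v, Q ((y : Matrix ι ι F) *ᵥ v) = Q v) :
    y * y = 1 ∨ ∃ s ∈ K, s * s = (y : Matrix ι ι F) + ((y⁻¹ : GL ι F) : Matrix ι ι F) ∧
      ∀ w, QuadraticMap.polar Q ((y : Matrix ι ι F) *ᵥ w) w = Q (s *ᵥ w) := by
  have hb := hQ.polar_bilinear
  have ht := trace_mem h2 hQ K hK h2r hsa y hyK hy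
  by_cases hfix : ∃ w : ι → F, w ≠ 0 ∧ (y : Matrix ι ι F) *ᵥ w = w
  · left
    obtain ⟨w, hw, hyw⟩ := hfix
    apply sq_eq_one_of_trace_zero h2
    apply eq_zero_of_mulVec_eq_zero hK ht hw
    have : ((y⁻¹ : GL ι F) : Matrix ι ι F) *ᵥ w = w := by
      conv_lhs => rw [← hyw]
      exact gl_inv_mul_vec y w
    rw [Matrix.add_mulVec, hyw, this, vec_add_self h2]
  · right
    push Not at hfix
    obtain ⟨s, hs, hss⟩ := exists_sqrt h2 hK ht
    refine ⟨s, hs, hss, ?_⟩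
    set D : (ι → F) → F := fun w => QuadraticMap.polar Q ((y : Matrix ι ι F) *ᵥ w) w + Q (s *ᵥ w)
      with hD
    have hDadd : ∀ u w, D (u + w) = D u + D w := by
      intro u w
      have e1 : QuadraticMap.polar Q (s *ᵥ u) (s *ᵥ w)
          = QuadraticMap.polar Q ((y : Matrix ι ι F) *ᵥ u) w
            + QuadraticMap.polar Q (((y⁻¹ : GL ι F) : Matrix ι ι F) *ᵥ u) w := by
        rw [← hsa s hs, Matrix.mulVec_mulVec, hss, Matrix.add_mulVec, hb.add_left]
      have e2 : QuadraticMap.polar Q ((y : Matrix ι ι F) *ᵥ w) u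
          = QuadraticMap.polar Q (((y⁻¹ : GL ι F) : Matrix ι ι F) *ᵥ u) w := by
        rw [polar_adj hy, QuadraticMap.polar_comm]
      simp only [hD]
      rw [Matrix.mulVec_add, Matrix.mulVec_add, hb.add_left, hb.add_right, hb.add_right,
        Cfsg.Agent.Lib.Helper57.OE.Q_add Q, e1, e2]
      have e3 := fld_add_self h2 (QuadraticMap.polar Q ((y : Matrix ι ι F) *ᵥ u) w)
      have e4 := fld_add_self h2
        (QuadraticMap.polar Q (((y⁻¹ : GL ι F) : Matrix ι ι F) *ᵥ u) w)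
      linear_combination e3 + e4
    have hDy : ∀ w, D ((y : Matrix ι ι F) *ᵥ w) = D w := by
      intro w
      simp only [hD]
      rw [polar_isom hy, Matrix.mulVec_mulVec, ← hyK s hs, ← Matrix.mulVec_mulVec, hy]
    have hinj : Function.Injective (Matrix.toLin' (1 + (y : Matrix ι ι F))) := by
      rw [← LinearMap.ker_eq_bot, LinearMap.ker_eq_bot']
      intro w hw
      by_contra hw0
      apply hfix w hw0
      rw [Matrix.toLin'_apply, Matrix.add_mulVec, Matrix.one_mulVec] at hw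
      have : (y : Matrix ι ι F) *ᵥ w = (w + w) + (y : Matrix ι ι F) *ᵥ w := by
        rw [vec_add_self h2, zero_add]
      rw [this, add_assoc, hw, add_zero]
    have hsurj := LinearMap.injective_iff_surjective.1 hinj
    have hD0 : ∀ w, D w = 0 := by
      intro w
      obtain ⟨x, rfl⟩ := hsurj w
      rw [Matrix.toLin'_apply, Matrix.add_mulVec, Matrix.one_mulVec, hDadd, hDy, fld_add_self h2]
    intro w
    have h := hD0 w
    simp only [hD] at h
    have e := fld_add_self h2 (Q (s *ᵥ w))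
    linear_combination h - e

theorem isometry_dichotomy_even [Fintype F] (h2 : (2 : F) = 0)
    (hQ : IsNondegenerateQuadraticForm Q) {r : ℕ} (K : Subalgebra F (Matrix ι ι F))
    (hK : IsFieldSubalgebra r K) (h2r : 2 * r = Fintype.card ι)
    (hsa : IsSelfAdjointFor (QuadraticMap.polar Q) K) (y₀ y : GL ι F)
    (hy₀K : Cent K (y₀ : Matrix ι ι F)) (hyK : Cent K (y : Matrix ι ι F))
    (hy₀ : ∀ v, Q ((y₀ : Matrix ι ι F) *ᵥ v) = Q v) (hy : ∀ v, Q ((y : Matrix ι ι F) *ᵥ v) = Q v)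
    (h₀ : y₀ * y₀ ≠ 1) :
    y * y = 1 ∨ ∃ a ∈ K, ∃ b ∈ K, (y : Matrix ι ι F) = a + b * (y₀ : Matrix ι ι F) := by
  have hb := hQ.polar_bilinear
  rcases isom_cases h2 hQ K hK h2r hsa y₀ hy₀K hy₀ with h | ⟨s₀, hs₀, hss₀, hf₀⟩
  · exact absurd h h₀
  rcases isom_cases h2 hQ K hK h2r hsa y hyK hy with h | ⟨s, hs, hss, hf⟩
  · exact Or.inl h
  right
  have hs₀0 : s₀ ≠ 0 := by
    intro h
    apply h₀
    apply sq_eq_one_of_trace_zero h2
    rw [← hss₀, h, zero_mul]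
  obtain ⟨s₁, hs₁, hs₀₁⟩ := hK.inv s₀ hs₀ hs₀0
  set c : Matrix ι ι F := s * s₁ with hc
  have hcK : c ∈ K := K.mul_mem hs hs₁
  have hs₀c : s₀ * c = s := by
    rw [hc, ← mul_assoc, hK.comm s₀ hs₀ s hs, mul_assoc, hs₀₁, mul_one]
  have hg : (y : Matrix ι ι F) + c * c * (y₀ : Matrix ι ι F) ∈ K := by
    apply mem_of_alternating h2 hQ K hK h2r hsa _
      (cent_add hyK (cent_mul (cent_of_mem hK (K.mul_mem hcK hcK)) hy₀K))
    intro w
    rw [Matrix.add_mulVec, hb.add_left, hf, mul_assoc, ← Matrix.mulVec_mulVec, hsa c hcK,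
      ← hy₀K c hcK, ← Matrix.mulVec_mulVec, hf₀, Matrix.mulVec_mulVec, hs₀c,
      fld_add_self h2]
  refine ⟨_, hg, c * c, K.mul_mem hcK hcK, ?_⟩
  rw [add_assoc, mat_add_self h2, add_zero]

end Cfsg.Agent.Lib.Helper2.O10
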