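import Cfsg.Agent.Lib.Helper2.O10.M6
import Cfsg.Agent.Lib.Helper89.O10.M7

set_option autoImplicit false
set_option linter.unusedSectionVars false

/-! # helper21's dimension 10 farm, piece M8: characteristic 2, the commutator subgroup of the
isometries commuting with `K` is commutative -/

namespace Cfsg.Agent.Lib.Helper2.O10

open Cfsg Cfsg.Geo Matrix Cfsg.Agent.Lib.Helper13.Asch Cfsg.Agent.Lib.Helper90.Sp
  Cfsg.Agent.Lib.Helper57.OE Cfsg.Agent.Lib.Helper21.O10
open scoped Kronecker MatrixGroups commutatorElement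

variable {ι : Type} [Fintype ι] [DecidableEq ι] {F : Type*} [Field F] {Q : (ι → F) → F}

theorem comm_commutator_even [Fintype F] (h2 : (2 : F) = 0)
    (hQ : IsNondegenerateQuadraticForm Q) {r : ℕ} (K : Subalgebra F (Matrix ι ι F))
    (hK : IsFieldSubalgebra r K) (h2r : 2 * r = Fintype.card ι)
    (hsa : IsSelfAdjointFor (QuadraticMap.polar Q) K)
    (N : Subgroup (GL ι F)) (hN : FixesQuadForm (matrixSet N) Q)
    (hNK : ∀ x ∈ N, Cent K (x : Matrix ι ι F)) :
    ∀ x ∈ ⁅N, N⁆, ∀ y ∈ ⁅N, N⁆, x * y = y * x := by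
  have hNQ : ∀ x ∈ N, ∀ v, Q ((x : Matrix ι ι F) *ᵥ v) = Q v :=
    fun x hx v => hN _ ⟨x, hx, rfl⟩ v
  by_cases hall : ∀ y ∈ N, y * y = 1
  · have hcomm : ∀ x ∈ N, ∀ y ∈ N, x * y = y * x := by
      intro x hx y hy
      have h1 := hall (x * y) (N.mul_mem hx hy)
      have hx1 := hall x hx
      have hy1 := hall y hy
      calc x * y = (y * y) * (x * y) * (x * x) := by rw [hx1, hy1, one_mul, mul_one]
        _ = y * (y * x) * (y * x) * x := by group
        _ = y * ((y * x) * (y * x)) * x := by group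
        _ = y * x := by rw [hall (y * x) (N.mul_mem hy hx), mul_one]
    have hbot : ⁅N, N⁆ = ⊥ := by
      rw [Subgroup.commutator_eq_bot_iff_le_centralizer]
      intro x hx
      rw [Subgroup.mem_centralizer_iff]
      intro y hy
      exact hcomm y hy x hx
    intro x hx y hy
    rw [hbot, Subgroup.mem_bot] at hx hy
    rw [hx, hy]
  push Not at hall
  obtain ⟨y₀, hy₀N, h₀⟩ := hall
  set Y : Matrix ι ι F := (y₀ : Matrix ι ι F) with hY
  have hYK : Cent K Y := hNK y₀ hy₀N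
  have ht₀ := trace_mem h2 hQ K hK h2r hsa y₀ hYK (hNQ y₀ hy₀N)
  set t : Matrix ι ι F := (y₀ : Matrix ι ι F) + ((y₀⁻¹ : GL ι F) : Matrix ι ι F) with ht
  have hYY : Y * Y = t * Y + 1 := by
    have e1 : ((y₀⁻¹ : GL ι F) : Matrix ι ι F) * Y = 1 := by
      rw [hY, ← Units.val_mul, inv_mul_cancel, Units.val_one]
    rw [ht, add_mul, e1, add_assoc, mat_add_self h2, add_zero]
  have hmulL : ∀ a ∈ K, ∀ b ∈ K, ∀ a' ∈ K, ∀ b' ∈ K,
      (a + b * Y) * (a' + b' * Y) = (a * a' + b * b') + (a * b' + b * a' + b * b' * t) * Y := by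
    intro a _ b _ a' ha' b' hb'
    have e1 : Y * a' = a' * Y := hYK a' ha'
    have e2 : Y * b' = b' * Y := hYK b' hb'
    calc (a + b * Y) * (a' + b' * Y)
        = a * a' + a * b' * Y + b * (Y * a') + b * (Y * b') * Y := by noncomm_ring
      _ = a * a' + a * b' * Y + b * a' * Y + b * b' * (Y * Y) := by
          rw [e1, e2]; noncomm_ring
      _ = (a * a' + b * b') + (a * b' + b * a' + b * b' * t) * Y := by
          rw [hYY]; noncomm_ring
  have hcommL : ∀ a ∈ K, ∀ b ∈ K, ∀ a' ∈ K, ∀ b' ∈ K,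
      (a + b * Y) * (a' + b' * Y) = (a' + b' * Y) * (a + b * Y) := by
    intro a ha b hb a' ha' b' hb'
    rw [hmulL a ha b hb a' ha' b' hb', hmulL a' ha' b' hb' a ha b hb, hK.comm a ha a' ha',
      hK.comm b hb b' hb', hK.comm a ha b' hb', hK.comm b hb a' ha', add_comm (b' * a) (a' * b)]
  let N₁ : Subgroup (GL ι F) :=
    { carrier := {y | y ∈ N ∧ ∃ a ∈ K, ∃ b ∈ K, (y : Matrix ι ι F) = a + b * Y}
      one_mem' := ⟨N.one_mem, 1, K.one_mem, 0, K.zero_mem, by simp⟩
      mul_mem' := by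
        rintro x y ⟨hx, a, ha, b, hb, hxa⟩ ⟨hy, a', ha', b', hb', hya⟩
        refine ⟨N.mul_mem hx hy, _, K.add_mem (K.mul_mem ha ha') (K.mul_mem hb hb'), _,
          K.add_mem (K.add_mem (K.mul_mem ha hb') (K.mul_mem hb ha'))
            (K.mul_mem (K.mul_mem hb hb') ht₀), ?_⟩
        rw [Units.val_mul, hxa, hya, hmulL a ha b hb a' ha' b' hb']
      inv_mem' := by
        rintro x ⟨hx, a, ha, b, hb, hxa⟩
        have htx := trace_mem h2 hQ K hK h2r hsa x (hNK x hx) (hNQ x hx)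
        refine ⟨N.inv_mem hx, _, K.add_mem htx ha, b, hb, ?_⟩
        rw [add_assoc, ← hxa, add_comm (x : Matrix ι ι F), add_assoc, mat_add_self h2, add_zero] }
  have hle : ⁅N, N⁆ ≤ N₁ := by
    apply Cfsg.Agent.Lib.Helper89.O10.commutator_le_of_involutions N N₁ (fun x hx => hx.1)
      ?_ ?_ y₀ ⟨hy₀N, 0, K.zero_mem, 1, K.one_mem, by simp [hY]⟩ h₀
    · rintro x ⟨-, a, ha, b, hb, hxa⟩ y ⟨-, a', ha', b', hb', hya⟩
      apply Units.ext
      rw [Units.val_mul, Units.val_mul, hxa, hya]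
      exact hcommL a ha b hb a' ha' b' hb'
    · intro x hx hx1
      rcases isometry_dichotomy_even h2 hQ K hK h2r hsa y₀ x hYK (hNK x hx) (hNQ y₀ hy₀N)
        (hNQ x hx) h₀ with h | h
      · exact h
      · exact absurd ⟨hx, h⟩ hx1
  intro x hx y hy
  obtain ⟨-, a, ha, b, hb, hxa⟩ := hle hx
  obtain ⟨-, a', ha', b', hb', hya⟩ := hle hy
  apply Units.ext
  rw [Units.val_mul, Units.val_mul, hxa, hya]
  exact hcommL a ha b hb a' ha' b' hb'

end Cfsg.Agent.Lib.Helper2.O10
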